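import Cfsg.Agent.Gen2.Trace
import Cfsg.Agent.Gen2.Basic
import Cfsg.Agent.Gen.Invol
import Cfsg.Agent.BG4.Tools

/-! A non-abelian group `A = F H` of order `pq` acting fixed-point-freely and coprimely on a solvable
group `K` (helper28): `Fpf K F H` and the dichotomy `Fpf.dichotomy` for hyperplanes; tools
`mem_of_cj_le`, `le_stab_iff`, `exists_hyperplane`, `cent_eq_hyperplane`. -/

set_option autoImplicit false
set_option linter.unusedSectionVars false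
set_option linter.unusedVariables false

namespace Cfsg.Agent.Gen2

open Subgroup Cfsg.Agent.BG
open scoped commutatorElement

universe u
variable {G : Type*} [Group G] [Finite G] {B D E F H K L M N Q R T U V W X Z : Subgroup G} {s t : ℕ}
  {f z : G}

theorem mem_of_cj_le (hn : H ≤ N[M]) (hc : (#M).Coprime #H) (hs : Group.IsSolvable H) (hE : H ≤ E)
    (hz : z ∈ M) (h : cj z H ≤ E) (hC : M ⊓ C[H] ≤ E) : z ∈ E := by
  have h1 : cj z H ≤ (E ⊓ M) ⊔ H := by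
    rw [← group_modr (Or.inr hn) hE]
    exact le_inf h (cj_le_of_mem (mem_sup_left hz) le_sup_right)
  obtain ⟨k, hk, h2⟩ := SchurZassenhaus_sub (normsI (normsG hE) hn) h1 (coprimeSg inf_le_right hc)
    (by rw [card_cj]; exact coprimeSg inf_le_right hc) (Or.inr (Or.inl hs))
  have h3 : k⁻¹ * z ∈ M ⊓ N[H] := ⟨M.mul_mem (M.inv_mem hk.2) hz, mem_norm_of_cj_le (by
    rwa [cj_mul, ← le_cj_iff])⟩
  rw [coprime_norm_cent hn hc] at h3
  simpa using E.mul_mem hk.1 (hC h3)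

omit [Finite G] in
theorem le_stab_iff (hD : D ⊴ Q) : B ≤ coquo D C[Q /ᵍ D] ↔ ⁅Q, B⁆ ≤ D := by
  rw [commGC]
  refine ⟨fun h => ?_, fun h => ?_⟩
  · have h1 := h.trans (cosetpre_norm _)
    rwa [← sub_quotient_pre h1, quotient_cents2 h1 hD.norm] at h
  · have h1 := norm_of_commg_subr ((commgS B hD.le).trans h)
    rwa [← sub_quotient_pre h1, quotient_cents2 h1 hD.norm]

theorem exists_hyperplane [hs : Fact s.Prime] (hZ : Abelem s Z) (hZV : Z ≤ N[V])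
    (hc : (#V).Coprime #Z) (h0 : V ⊓ C[Z] = ⊥) (h : ¬ V ≤ L) :
    ∃ D ≤ Z, (D.relIndex Z).Prime ∧ ¬ V ⊓ C[D] ≤ L := by
  by_contra h1
  push Not at h1
  refine h (coprime_abelem_gen_cent hZ hZV hc fun B hB hi => ?_)
  rcases (Nat.dvd_prime hs.out).1 hi with h2 | h2
  · rw [le_antisymm hB (relIndex_eq_one.1 h2), h0]
    exact bot_le
  · exact h1 B hB (h2 ▸ hs.out)

theorem cent_eq_hyperplane (hZ : IsMulCommutative Z) (h0 : V ⊓ C[Z] = ⊥) (hD : D ≤ Z)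
    (hp : (D.relIndex Z).Prime) (hW : W ≤ V ⊓ C[D]) (h : W ≠ ⊥) : Z ⊓ C[W] ≤ D := by
  by_contra h1
  have h2 := (p_index_maximal hD hp).sup_eq inf_le_left h1
  refine h (eq_bot_iff.2 (h0 ▸ le_inf (hW.trans inf_le_left) (cents_symm ?_)))
  exact h2.ge.trans (sup_le (cents_symm (hW.trans inf_le_right)) inf_le_right)

/-- the non-abelian group `F H` of order `pq` acts fixed-point-freely and coprimely on `K` -/
structure Fpf (K F H : Subgroup G) : Prop where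
  pF : (#F).Prime
  pH : (#H).Prime
  norm : H ≤ N[F]
  ncent : ¬ H ≤ C[F]
  sol : Group.IsSolvable K
  nF : F ≤ N[K]
  nH : H ≤ N[K]
  cF : (#K).Coprime #F
  cH : (#K).Coprime #H
  fpf : K ⊓ C[F ⊔ H] = ⊥

namespace Fpf

theorem dvd (h : Fpf K F H) : #H ∣ #F - 1 := by
  have h1 := relIndex_cent_prime_dvd h.pF h.norm
  have h2 := card_inf_mul_relIndex C[F] H
  rw [inf_comm, prime_TI h.pH h.ncent, card_bot, one_mul] at h2
  exact h2 ▸ h1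

theorem cop (h : Fpf K F H) : (#F).Coprime #H := by
  refine (Nat.coprime_primes h.pF h.pH).2 fun e => ?_
  have h1 := Nat.le_of_dvd (Nat.sub_pos_of_lt h.pF.one_lt) h.dvd
  have := h.pF.pos
  omega

theorem reg (h : Fpf K F H) : F ⊓ C[H] = ⊥ := prime_TI h.pF fun h1 => h.ncent (cents_symm h1)

theorem frob (h : Fpf K F H) : Frob F H (F ⊔ H) :=
  Frob.mk' h.norm (ne_bot_of_prime h.pF) (ne_bot_of_prime h.pH) (semiregular_prime h.pH h.reg)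

theorem solF (h : Fpf K F H) : Group.IsSolvable F := abelian_sol (cyclic_abelian (prime_cyclic h.pF))
theorem solH (h : Fpf K F H) : Group.IsSolvable H := abelian_sol (cyclic_abelian (prime_cyclic h.pH))

theorem cA (h : Fpf K F H) : (#K).Coprime #(F ⊔ H) :=
  (h.cF.mul_right h.cH).coprime_dvd_right (card_sup_dvd (Or.inr h.norm))

theorem sub (h : Fpf K F H) (hL : L ≤ K) (hF : F ≤ N[L]) (hH : H ≤ N[L]) : Fpf L F H :=
  ⟨h.pF, h.pH, h.norm, h.ncent, solvableS hL h.sol, hF, hH, coprimeSg hL h.cF, coprimeSg hL h.cH,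
    eq_bot_iff.2 (h.fpf ▸ inf_le_inf_right _ hL)⟩

theorem quo (h : Fpf K F H) (hN : N ≤ K) (hF : F ≤ N[N]) (hH : H ≤ N[N]) :
    Fpf (K /ᵍ N) (F /ᵍ N) (H /ᵍ N) := by
  have tF : F ⊓ N = ⊥ := coprime_TI (coprimeSg hN h.cF).symm
  have eF : #(F /ᵍ N) = #F := card_quotient_TI hF (inf_comm F N ▸ tF)
  have eH : #(H /ᵍ N) = #H := card_quotient_TI hH (coprime_TI (coprimeSg hN h.cH))
  refine ⟨eF ▸ h.pF, eH ▸ h.pH, quotient_norms N h.norm, fun h1 => h.ncent (commG1.1 ?_),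
    quotient_sol N h.sol, quotient_norms N h.nF, quotient_norms N h.nH, coprime_morph _ h.cF,
    coprime_morph _ h.cH, ?_⟩
  · exact eq_bot_iff.2 (tF ▸ le_inf (commg_subr h.norm) ((quotient_cents2 hH hF).1 h1))
  · rw [← quotientY hF hH, ← coprime_quotient_cent hN (sup_le hF hH) (coprimeSg hN h.cA)
      (Or.inr (solvableS hN h.sol)), h.fpf, quotient_bot]

theorem sup_cj (h : Fpf K F H) (hf : f ∈ F) : F ⊔ cj f H = F ⊔ H := by
  rw [← cj_of_mem (A := F ⊔ H) (mem_sup_left hf), cj_sup, cj_of_mem hf]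

theorem norm_cj (hF : F ≤ N[L]) (hH : H ≤ N[L]) (hf : f ∈ F) : cj f H ≤ N[L] :=
  cj_le_of_mem (hF hf) hH

theorem cj (h : Fpf K F H) (hf : f ∈ F) : Fpf K F (cj f H) :=
  ⟨h.pF, card_cj f H ▸ h.pH, norm_cj (normG F) h.norm hf, fun h1 => h.ncent (by
    rwa [← cj_of_mem hf, C_cj, cj_le_cj] at h1), h.sol, h.nF, norm_cj h.nF h.nH hf, h.cF,
    card_cj f H ▸ h.cH, h.sup_cj hf ▸ h.fpf⟩

theorem fix (h : Fpf K F H) (hX : X ≤ K ⊓ C[F]) : X ⊓ C[H] = ⊥ :=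
  eq_bot_iff.2 (by rw [← h.fpf, cent_sup, ← inf_assoc]; exact inf_le_inf_right _ hX)

theorem cents (h : Fpf K F H) (hX : X ≤ K ⊓ C[F]) (hU : U ≤ K ⊓ C[F]) (hc : (#X).Coprime #U) :
    X ≤ C[U] :=
  sub_nilpotent_cent2 (prime_Frobenius_sol_kernel_nil (normsI h.nH (norms_cent h.norm))
    (solvableS inf_le_left h.sol) h.pH (h.fix le_rfl)) hX hU hc

theorem shult [hs : Fact s.Prime] (h : Fpf K F H) (hQ : IsPGroup s Q) (hQK : Q ≤ K) (hn : F ≤ N[Q])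
    (hW : W ≤ K) (hQW : Q ≤ N[W]) (hFW : F ≤ N[W]) (hc : (#W).Coprime #Q) (h0 : W ⊓ C[F] = ⊥) :
    ⁅Q, F⁆ ≤ C[W] := by
  by_cases hQ0 : Q = ⊥
  · simp [hQ0]
  have hd := (pgroup_pdiv hQ hQ0).trans (cardSg hQK)
  refine prime_pgroup_cent1 hQ h.pF (fun e => hs.out.ne_one (Nat.eq_one_of_dvd_coprimes h.cF hd
    e.symm.dvd)) hn (fun ⟨e, k, hk⟩ => ?_) (solvableS hW h.sol) hQW hFW hc (coprimeSg hW h.cF) h0
  have h1 := h.dvd
  rw [hk, Nat.add_sub_cancel] at h1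
  exact absurd (Nat.eq_one_of_dvd_coprimes h.cH (e ▸ hd) ((Nat.prime_dvd_prime_iff_eq h.pH
    Nat.prime_two).1 (h.pH.dvd_of_dvd_pow h1)).symm.dvd) (by decide)

theorem dichotomy [hs : Fact s.Prime] (h : Fpf K F H) (hVK : V ≤ K) (hZK : Z ≤ K)
    (hV : IsMulCommutative V) (hZ : Abelem s Z) (hFV : F ≤ N[V]) (hHV : H ≤ N[V])
    (hFZ : F ≤ N[Z]) (hHZ : H ≤ N[Z]) (hZV : Z ≤ N[V]) (hc : (#V).Coprime #Z) (h0 : V ⊓ C[Z] = ⊥)
    (hD : D ≤ Z) (hp : (D.relIndex Z).Prime) (hW : V ⊓ C[D] ≠ ⊥) :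
    (F ≤ N[D] ∧ V ⊓ C[D] ⊓ C[F] = ⊥) ∨ ∃ f ∈ F, BG.cj f H ≤ N[D] ∧ V ⊓ C[D] ⊓ C[BG.cj f H] = ⊥ ∧
      ∀ X ≤ K ⊓ C[F], X ≤ N[V] → X ≤ N[D] → (#X).Coprime #V → X ≤ C[V ⊓ C[D]] := by
  have tr := fun T hT hTZ hf => trace_inj (T := T) hV hZ.abelian hZV hc h0 hD hp hT hTZ hf
  have one : ∀ v : V, (v : G) ∈ C[F] → (v : G) ∈ C[H] → v = 1 := fun v h1 h2 =>
    Subtype.ext (mem_bot.1 (h.fpf ▸ mem_inf.2 ⟨hVK v.2, cent_sup F H ▸ mem_inf.2 ⟨h1, h2⟩⟩))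
  by_cases hFD : F ≤ N[D]
  · refine Or.inl ⟨hFD, ?_⟩
    by_cases hHD : H ≤ N[D]
    · by_contra hU
      have h1 : Z ⊓ C[F] ≤ D := (le_inf inf_le_left (h.cents (inf_le_inf_right _ hZK)
        (inf_le_inf_right _ (inf_le_left.trans hVK))
        (coprimeSS inf_le_left (inf_le_left.trans inf_le_left) hc.symm))).trans
        (cent_eq_hyperplane hZ.abelian h0 hD hp inf_le_left hU)
      have hDZ := sub_abelian_norm hZ.abelian hD
      have h2 : ⁅F ⊔ H, F ⊔ H⁆ /ᵍ D ≤ C[Z /ᵍ D] := by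
        rw [quotient_der (sup_le hFD hHD)]
        exact der1_cent_cyclic (prime_cyclic (by rwa [card_quotient hDZ]))
          (quotient_norms D (sup_le hFZ hHZ))
      have h3 : ⁅F, Z⁆ ≤ D := (quotient_cents2 hFD hDZ).1 ((quotientS D ((Frobenius_commg h.frob).ge.trans
        (commgSS le_sup_left le_sup_right))).trans h2)
      have h4 := coprime_cent_prod' hFZ (coprimeSg hZK h.cF) (Or.inl h.solF)
      exact hp.ne_one (relIndex_eq_one.2 (h4.ge.trans (sup_le (commGC F Z ▸ h3) h1)))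
    · obtain ⟨τ, h1, -, h3, h4⟩ := tr H hHV hHZ (prime_TI h.pH hHD)
      refine eq_bot_iff.2 fun v hv => congrArg Subtype.val (h4 ⟨v, hv.1.1⟩ hv.1.2 (one _ ?_ (h1 _)))
      exact h3 _ (norms_cent h.norm) _ hv.2
  have hF0 := prime_TI h.pF hFD
  have hB : (F ⊔ H) ⊓ N[D] ≠ ⊥ := fun hB => by
    obtain ⟨τ, h1, -, -, h4⟩ := tr (F ⊔ H) (sup_le hFV hHV) (sup_le hFZ hHZ) hB
    exact hW (eq_bot_iff.2 fun v hv => congrArg Subtype.val (h4 ⟨v, hv.1⟩ hv.2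
      (one _ (centS le_sup_left (h1 _)) (centS le_sup_right (h1 _)))))
  have hBF : (#F).Coprime #((F ⊔ H) ⊓ N[D]) := by
    refine (Nat.Prime.coprime_iff_not_dvd h.pF).2 fun hd => ?_
    obtain ⟨X, hX, hX'⟩ := Cauchy_sub h.pF hd
    have h1 : X ≤ F := sub_of_coprime_sup h.norm (hX.trans inf_le_left) (hX' ▸ h.cop)
    exact ne_bot_of_prime (hX' ▸ h.pF) (eq_bot_iff.2 (hF0 ▸ le_inf h1 (hX.trans inf_le_right)))
  obtain ⟨f, hf, hB'⟩ := SchurZassenhaus_sub h.norm inf_le_left h.cop hBF (Or.inl h.solF)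
  have h' := h.cj hf
  have hHD : BG.cj f H ≤ N[D] := prime_nt_eq h'.pH hB' hB ▸ inf_le_right
  obtain ⟨τ, h1, h2, -, h4⟩ := tr F hFV hFZ hF0
  refine Or.inr ⟨f, hf, hHD, eq_bot_iff.2 fun v hv => ?_, fun X hX hXV hXD hcX x hx => ?_⟩
  · refine congrArg Subtype.val (h4 ⟨v, hv.1.1⟩ hv.1.2 (Subtype.ext (mem_bot.1
      (h'.fix (X := K ⊓ C[F]) le_rfl ▸ mem_inf.2 ⟨⟨hVK (τ _).2, h1 _⟩, BG.mem_cent.2 fun y hy => ?_⟩))))
    exact mul_inv_eq_iff_eq_mul.1 (h2 y (h'.norm hy) _ _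
      (mul_inv_eq_iff_eq_mul.2 (BG.mem_cent.1 hv.2 y hy)))
  · refine BG.mem_cent.2 fun v hv => (mul_inv_eq_iff_eq_mul.1 ?_).symm
    have hw : x * v * x⁻¹ ∈ V ⊓ C[D] := conj_mem_of_norm (normsI hXV (norms_cent hXD) hx) hv
    have h5 := h2 x (cent_sub F (hX hx).2) ⟨v, hv.1⟩ ⟨_, hw.1⟩ rfl
    rw [conj_eq_of_cent (h.cents hX (U := V ⊓ C[F]) (inf_le_inf_right _ hVK)
      (coprimegS inf_le_left hcX) hx) ⟨(τ _).2, h1 _⟩] at h5
    have h6 := h4 (⟨_, hw.1⟩ * ⟨v, hv.1⟩⁻¹) (mul_mem hw.2 (inv_mem hv.2))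
      (by rw [map_mul, map_inv, ← Subtype.ext h5, mul_inv_cancel])
    exact mul_inv_eq_one.1 (congrArg Subtype.val h6)

end Fpf

end Cfsg.Agent.Gen2
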