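import Cfsg.Agent.Gen2.FpfPQ

/-! Fixed-point-free action of a non-abelian group of order `pq` (helper28): `Fpf.core`
(`[Q, R] ≤ C(V)` for towers), `Fpf.nil_quotient_Fitting` (Fitting height at most 2) and
`Fpf.der_le_Fitting` (`K' ≤ F(K)` for `A = S₃`). -/

set_option autoImplicit false
set_option linter.unusedSectionVars false
set_option linter.unusedVariables false

namespace Cfsg.Agent.Gen2

open Subgroup Cfsg.Agent.BG
open scoped commutatorElement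

universe u
variable {G : Type*} [Group G] [Finite G] {B D E F H K L M N Q R T U V W X Z : Subgroup G} {r s t : ℕ}
  {f z : G}

namespace Fpf

theorem core_min [hs : Fact s.Prime] [ht : Fact t.Prime] (h : Fpf K F H) (hVK : V ≤ K) (hQK : Q ≤ K)
    (hRK : R ≤ K) (hV : IsMulCommutative V) (hQ : IsPGroup s Q) (hR : IsPGroup t R) (hst : t ≠ s)
    (hc : (#V).Coprime #Q) (hFV : F ≤ N[V]) (hHV : H ≤ N[V]) (hFQ : F ≤ N[Q]) (hHQ : H ≤ N[Q])
    (hFR : F ≤ N[R]) (hHR : H ≤ N[R]) (hQV : Q ≤ N[V]) (hRV : R ≤ N[V]) (hRQ : R ≤ N[Q])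
    (hC : Q ⊓ C[V] = ⊥) (hmin : ∀ U < Q, R ⊔ (F ⊔ H) ≤ N[U] → ⁅U, R⁆ = ⊥) : ⁅Q, R⁆ = ⊥ := by
  by_contra hcon
  have hRs : (#R).Coprime s := (p'nat_coprime hs.out).1 (p'group_of_ne hR hst)
  have hQR : (#Q).Coprime #R := Solv.coprime_card_of_isPGroup hQ hRs
  obtain ⟨h1, h2, h3, -, h4, -⟩ := Gen.minimal_action hQ (sup_le hRQ (sup_le hFQ hHQ)) le_sup_left
    (sup_le (normG R) (sup_le hFR hHR)) hRs hcon hmin
  have hQ0 : Q ≠ ⊥ := fun h => hcon (by simp [h])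
  have cQF := coprimeSg hQK h.cF
  have cRF := coprimeSg hRK h.cF
  have hsH : #H ≠ s := fun e => hs.out.ne_one (Nat.eq_one_of_dvd_coprimes h.cH
    ((pgroup_pdiv hQ hQ0).trans (cardSg hQK)) e.symm.dvd)
  have hR₀ : R ⊓ C[F] ≤ K ⊓ C[F] := inf_le_inf_right _ hRK
  have hX : Q ⊓ C[F] ≤ K ⊓ C[F] := inf_le_inf_right _ hQK
  have hXR : Q ⊓ C[F] ≤ C[R ⊓ C[F]] := h.cents hX hR₀ (coprimeSS inf_le_left inf_le_left hQR)
  have hQN : ∀ N, R ≤ N[N] → ⁅R, F⁆ ≤ C[Q] → ⁅Q, R ⊓ C[F]⁆ ≤ N → Q ≤ N := fun N hn a b => by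
    rw [← h1, ← coprime_cent_prod' hFR cRF (Or.inl h.solF), commGC]
    exact comm_sup_le ((commg_subl hFR).trans hn) (inf_le_left.trans hn)
      (by rw [commG1.2 a]; exact bot_le) (commGC Q _ ▸ b)
  have hFQ' : ¬ ⁅Q, F⁆ ≤ C[R] := fun a => by
    have b := coprime_cent_Phi hFQ cQF (h2 ▸ le_inf (commg_subl hFQ) a)
    rw [inf_eq_left.2 (cents_symm b)] at hXR
    exact hQ0 (eq_bot_iff.2 (hQN ⊥ (by simp) ((commgS R b).trans (commg_subr (norms_cent hRQ)))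
      (commG1.2 hXR).le))
  have hRF : Q ⊓ C[F] ≤ C[R] → ⁅R, F⁆ ≤ C[Q] := fun a => by
    have nF := norms_Phi hFQ
    have nR := norms_Phi hRQ
    have nQ := (Phi_normal Q).norm
    have b := (h.quo ((Phi_sub Q).trans hQK) nF (norms_Phi hHQ)).shult (hR.quo _) (quotientS _ hRK)
      (quotient_norms _ hFR) (quotientS _ hQK) (quotient_norms _ hRQ) (quotient_norms _ hFQ)
      (coprime_morph _ hQR) (by
        rw [← coprime_quotient_cent' nQ nF hFQ cQF (Or.inl h.solF)]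
        exact quotientS1 (h2 ▸ le_inf inf_le_left a))
    rw [← quotientR nR nF, quotient_cents2 (comm_subG nR nF) nQ, commGC] at b
    exact coprime_cent_Phi (comm_subG hRQ hFQ) (coprimegS (commg_subl hFR) hQR) b
  have key : ∀ N U, N < Q → R ≤ N[N] → U ≤ N → F ≤ N[U] → H ≤ N[U] → U ≤ C[R] :=
    fun N U hN hn hU a b => by
      have c : ⁅U, R⁆ ≤ N := (commSg R hU).trans (commg_subl hn)
      exact cents_symm (stable_factor_cent (commG1'.1 (hmin _ (c.trans_lt hN) (sup_le (commg_normr U R)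
        (sup_le (normsR a hFR) (normsR b hHR))))) le_rfl (coprimeSg (c.trans hN.le) hQR))
  have nX := normsI hFQ (norms_cent (normG F))
  have nX' := normsI hHQ (norms_cent h.norm)
  -- the elementary abelian subgroup `Z` and the module `V₁`
  have hZ := Ohm1_center_abelem s Q
  set Z := omegaOne s Z[Q] with hZdef
  have hZQ' : Z ≤ Z[Q] := Ohm_sub _ _
  have hZQ : Z ≤ Q := hZQ'.trans inf_le_left
  have nZ : ∀ {B}, B ≤ N[Q] → B ≤ N[Z] := fun hB => norms_Ohm s (norms_center hB)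
  have hZ0 : Z ≠ ⊥ := Ohm1_ne_bot (IsPGroup.sub hQ (center_sub Q)) (center_nil_ne_bot (pgroup_nil hQ) hQ0)
  have hZV := hZQ.trans hQV
  have hV₁ : ⁅V, Z⁆ ≤ V := commg_subl hZV
  have n₁ : ∀ {B}, B ≤ N[V] → B ≤ N[Q] → B ≤ N[⁅V, Z⁆] := fun a b => normsR a (nZ b)
  have c₁ := coprimeSg hV₁ hc
  have h0 := coprime_abel_cent_TI hZV (coprimegS hZQ hc) hV
  have hV0 : ¬ ⁅V, Z⁆ ≤ ⊥ := fun a => hZ0 (eq_bot_iff.2 (hC ▸ le_inf hZQ (commG1'.1 (le_bot_iff.1 a))))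
  have hZ₁ := commg_normr V Z
  have dich := fun D hD hp hW => h.dichotomy (D := D) (hV₁.trans hVK) (hZQ.trans hQK) (abelianS hV₁ hV)
    hZ (n₁ hFV hFQ) (n₁ hHV hHQ) (nZ hFQ) (nZ hHQ) hZ₁ (coprimegS hZQ c₁) h0 hD hp hW
  have nQD : ∀ D ≤ Z, Q ≤ N[D] := fun D hD => cents_norm (cents_symm ((hD.trans hZQ').trans inf_le_right))
  have nW : ∀ {B D}, B ≤ N[V] → B ≤ N[Q] → B ≤ N[D] → B ≤ N[⁅V, Z⁆ ⊓ C[D]] :=
    fun a b c => normsI (n₁ a b) (norms_cent c)
  have hWK : ∀ D, ⁅V, Z⁆ ⊓ C[D] ≤ K := fun D => inf_le_left.trans (hV₁.trans hVK)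
  have cW : ∀ D, (#(⁅V, Z⁆ ⊓ C[D])).Coprime #Q := fun D => coprimeSg inf_le_left c₁
  -- the refined dichotomy
  have dich' : ∀ D ≤ Z, (D.relIndex Z).Prime → ⁅V, Z⁆ ⊓ C[D] ≠ ⊥ →
      ⁅Q, F⁆ ≤ C[⁅V, Z⁆ ⊓ C[D]] ∨ Q ⊓ C[F] ≤ C[⁅V, Z⁆ ⊓ C[D]] ∧
        ∃ f ∈ F, BG.cj f H ≤ N[D] ∧ ⁅V, Z⁆ ⊓ C[D] ⊓ C[BG.cj f H] = ⊥ := fun D hD hp hW => by
    rcases dich D hD hp hW with ⟨a, b⟩ | ⟨f, hf, a, b, c⟩
    · exact Or.inl (h.shult hQ hQK hFQ (hWK D) (nW hQV (normG Q) (nQD D hD)) (nW hFV hFQ a) (cW D) b)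
    · exact Or.inr ⟨c _ hX (inf_le_left.trans (n₁ hQV (normG Q))) (inf_le_left.trans (nQD D hD))
        (coprimeSg inf_le_left c₁.symm), f, hf, a, b⟩
  by_cases hab : IsMulCommutative Q
  swap
  · obtain ⟨D, hD, hp, hW⟩ := exists_hyperplane hZ hZ₁ (coprimegS hZQ c₁) h0 hV0
    rw [le_bot_iff] at hW
    have hRD : R ≤ N[D] := cents_norm (cents_symm ((hD.trans hZQ').trans
      ((h2.trans (h4 hab)).ge.trans inf_le_right)))
    have hRN := normsI hRQ (norms_cent (nW hRV hRQ hRD))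
    have hN : Q ⊓ C[⁅V, Z⁆ ⊓ C[D]] < Q := lt_of_le_of_ne inf_le_left fun e => hp.ne_one
      (relIndex_eq_one.2 ((le_inf le_rfl (hZQ.trans (e.ge.trans inf_le_right))).trans
        (cent_eq_hyperplane hZ.abelian h0 hD hp le_rfl hW)))
    rcases dich' D hD hp hW with a | ⟨a, f, hf, b, c⟩
    · exact hFQ' (key _ _ hN hRN (le_inf (commg_subl hFQ) a) (commg_normr Q F) (normsR hHQ h.norm))
    · have h' := h.cj hf
      refine hN.not_ge (hQN _ hRN (hRF (key _ _ hN hRN (le_inf inf_le_left a) nX nX'))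
        (le_inf (commg_subl (inf_le_left.trans hRQ)) (frob_pgroup_cent hQ h'.pH (card_cj f H ▸ hsH)
        (coprimeSg inf_le_left hRs) (inf_le_left.trans hRQ) (norm_cj hFQ hHQ hf)
        (normsI (norm_cj hFR hHR hf) (norms_cent h'.norm)) (h'.fix hR₀) (solvableS (hWK D) h.sol)
        (nW hQV (normG Q) (nQD D hD)) (inf_le_left.trans (nW hRV hRQ hRD))
        (nW (norm_cj hFV hHV hf) (norm_cj hFQ hHQ hf) b) (cW D) (coprimeSg (hWK D) h'.cH) c)))
  rw [der1_eq_bot.2 hab] at h3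
  rw [h3] at h2
  have hQe : Abelem s Q := (trivg_Phi hQ).1 h3
  have eZ : Z = Q := by rw [hZdef, center_eq_of_abelian hab, Ohm1_id hQe]
  clear_value Z
  subst eZ
  have dich'' : ∀ D ≤ Z, (D.relIndex Z).Prime → ⁅V, Z⁆ ⊓ C[D] ≠ ⊥ → ⁅Z, F⁆ ≤ D ∨
      Z ⊓ C[F] ≤ C[⁅V, Z⁆ ⊓ C[D]] ∧ Z ⊓ C[F] ≤ D ∧ ∃ f ∈ F, ⁅Z, BG.cj f H⁆ ≤ D := fun D hD hp hW => by
    have e := cent_eq_hyperplane hab h0 hD hp le_rfl hW
    rcases dich' D hD hp hW with a | ⟨a, f, hf, b, c⟩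
    · exact Or.inl ((le_inf (commg_subl hFQ) a).trans e)
    · have h' := h.cj hf
      have n := norm_cj hFQ hHQ hf
      exact Or.inr ⟨a, (le_inf inf_le_left a).trans e, f, hf, (le_inf (commg_subl n)
        (prime_pgroup_cent1 hQ h'.pH (card_cj f H ▸ hsH) n (fun _ => hab) (solvableS (hWK D) h.sol)
        (nW hQV (normG Z) (nQD D hD)) (nW (norm_cj hFV hHV hf) n b) (cW D) (coprimeSg (hWK D) h'.cH)
        c)).trans e⟩
  have dcj : ∀ D ≤ Z, (D.relIndex Z).Prime → ⁅V, Z⁆ ⊓ C[D] ≠ ⊥ → ∀ x ∈ R,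
      ⁅Z, BG.cj x F⁆ ≤ D ∨ BG.cj x (Z ⊓ C[F]) ≤ D ∧ ∃ f ∈ F, ⁅Z, BG.cj (x * f) H⁆ ≤ D :=
    fun D hD hp hW x hx => by
    have hx' := hRQ (inv_mem hx)
    have e : ∀ B, ⁅Z, B⁆ ≤ BG.cj x⁻¹ D → ⁅Z, BG.cj x B⁆ ≤ D := fun B hB => by
      rwa [← cj_le_iff, cj_comm, cj_of_norm (hRQ hx)] at hB
    rcases dich'' (BG.cj x⁻¹ D) (cj_le_of_norm hx' hD) (by
      rwa [← cj_of_norm hx', relIndex_cj]) (by
      rwa [← cj_of_norm (n₁ hRV hRQ (inv_mem hx)), C_cj, ← cj_inf, Ne, cj_eq_bot]) with a | ⟨-, a, f, hf, b⟩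
    · exact Or.inl (e _ a)
    · exact Or.inr ⟨cj_le_iff.2 a, f, hf, cj_mul x f H ▸ e _ b⟩
  have hZF := coprime_cent_prod' hFQ cQF (Or.inl h.solF)
  by_cases hX0 : Z ⊓ C[F] = ⊥
  · obtain ⟨D, hD, hp, hW⟩ := exists_hyperplane hZ hZ₁ (coprimegS hZQ c₁) h0 hV0
    rw [le_bot_iff] at hW
    have hDn := sub_abelian_normal hab hD
    have hne : ¬ Z ≤ D := fun a => hp.ne_one (relIndex_eq_one.2 a)
    rw [hX0, sup_bot_eq] at hZF
    have no : ∀ x ∈ R ⊓ C[F], ∃ f ∈ F, BG.cj (x * f) H ≤ coquo D C[Z /ᵍ D] := fun x hx => by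
      rcases dcj D hD hp hW x hx.1 with a | ⟨-, f, hf, a⟩
      · rw [cj_of_cent hx.2, hZF] at a
        exact absurd a hne
      · exact ⟨f, hf, (le_stab_iff hDn).2 a⟩
    obtain ⟨f₀, hf₀, hE⟩ := no 1 (one_mem _)
    rw [one_mul] at hE
    have h' := h.cj hf₀
    have hRF' := hRF (hX0 ▸ bot_le)
    have hR₀E : ⁅Z, R ⊓ C[F]⁆ ≤ D := (le_stab_iff hDn).1 fun x hx => by
      obtain ⟨f, hf, a⟩ := no x hx
      have nR := normsI (norm_cj hFR hHR hf₀) (norms_cent h'.norm)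
      have nn : F ≤ N[R ⊓ C[F]] := cents_norm (cents_symm inf_le_right)
      have cR := coprimeSg (hR₀.trans inf_le_left) h'.cH
      have hf' := F.mul_mem hf (F.inv_mem hf₀)
      have b : x * (f * f₀⁻¹) ∈ coquo D C[Z /ᵍ D] := mem_of_cj_le (M := R ⊓ C[F] ⊔ F)
        (normsY nR h'.norm) ((cR.mul_left h'.cop).coprime_dvd_left (card_sup_dvd (Or.inr nn))) h'.solH
        hE (mul_mem_sup hx hf') (by rwa [← cj_mul, mul_assoc, inv_mul_cancel_right])
        (by rw [coprime_mulG_setI_cent nn nR h'.norm (coprimeSg inf_le_left cR) (Or.inl h'.solH),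
          h'.fix hR₀, h'.reg]; simp)
      exact zpowers_le.2 b (mem_zpowers_mul_left (BG.mem_cent.1 hx.2 _ hf').symm
        ((cRF.coprime_dvd_left (R.orderOf_dvd_natCard hx.1)).coprime_dvd_right
          (F.orderOf_dvd_natCard hf')))
    refine hne (hQN D ?_ hRF' hR₀E)
    rw [← coprime_cent_prod' hFR cRF (Or.inl h.solF)]
    exact sup_le (cents_norm (centsS hD hRF')) (norm_of_commg_subl ((commSg _ hD).trans hR₀E))
  have hXV : ¬ ⁅V, Z⁆ ≤ C[Z ⊓ C[F]] := fun a => hX0 (eq_bot_iff.2 (hC ▸ le_inf inf_le_left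
    (cents_symm ((coprime_cent_prod' hZV hc (Or.inl (pgroup_sol hQ))).ge.trans
      (sup_le a (inf_le_right.trans (centS inf_le_left)))))))
  obtain ⟨D, hD, hp, hW⟩ := exists_hyperplane hZ hZ₁ (coprimegS hZQ c₁) h0 hXV
  have hW' : ⁅V, Z⁆ ⊓ C[D] ≠ ⊥ := fun e => hW (e ▸ bot_le)
  have hDn := sub_abelian_normal hab hD
  have hI := (dich'' D hD hp hW').resolve_right fun a => hW (cents_symm a.1)
  obtain ⟨y, hy, hyD⟩ := SetLike.not_le_iff_exists.1 fun a : Z ⊓ C[F] ≤ D =>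
    hp.ne_one (relIndex_eq_one.2 (hZF.ge.trans (sup_le hI a)))
  have hR₀E : R ⊓ C[F] ≤ coquo D C[Z /ᵍ D] := (le_stab_iff hDn).2 (by
    rw [← hZF]
    exact comm_sup_le ((commg_subl hFQ).trans hDn.norm) (inf_le_left.trans hDn.norm)
      ((commg_subl (normsR (inf_le_left.trans hRQ) (cents_norm inf_le_right))).trans hI)
      (by rw [commG1.2 hXR]; exact bot_le))
  obtain ⟨τ, t1, -, t3⟩ := exists_trace hab hRQ
  have e := t3 D (R ⊓ coquo D C[Z /ᵍ D]) ⟨y, hy.1⟩ inf_le_left (fun x hx hx' => by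
    rcases dcj D hD hp hW' x hx with a | ⟨a, -⟩
    · exact absurd ⟨hx, mem_of_cj_le hFR cRF h.solF ((le_stab_iff hDn).2 hI) hx
        ((le_stab_iff hDn).2 a) hR₀E⟩ hx'
    · exact a (conj_mem_cj x hy)) (fun x hx => by
    simpa [commutatorElement_def, mul_assoc] using (le_stab_iff hDn).1 inf_le_right
      (commutator_mem_commutator (Z.inv_mem hy.1) hx))
  have e1 : (τ ⟨y, hy.1⟩ : G) = 1 := mem_bot.1 (h2 ▸ mem_inf.2 ⟨(τ _).2, t1 _⟩)
  rw [e1, mul_one, inv_mem_iff] at e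
  exact hyD (zpowers_le.2 e (mem_zpowers_pow_iff.2 ((coprimegS inf_le_left hQR).symm.coprime_dvd_right
    (Z.orderOf_dvd_natCard hy.1))))

end Fpf

omit [Finite G] in
theorem cent_of_quotient (hB : B ≤ N[V]) (hBN : B ≤ N[N]) (hVN : V ≤ N[N]) (h0 : V ⊓ N = ⊥)
    (h : B /ᵍ N ≤ C[V /ᵍ N]) : B ≤ C[V] :=
  commG1.1 (eq_bot_iff.2 (h0 ▸ le_inf (commg_subr hB) ((quotient_cents2 hBN hVN).1 h)))

namespace Fpf

theorem core_aux [hs : Fact s.Prime] [ht : Fact t.Prime] (hst : t ≠ s) (n : ℕ) :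
    ∀ {G : Type u} [Group G] [Finite G] {K F H V Q R : Subgroup G}, #Q = n → Fpf K F H → V ≤ K →
    Q ≤ K → R ≤ K → IsMulCommutative V → IsPGroup s Q → IsPGroup t R → (#V).Coprime #Q → F ≤ N[V] →
    H ≤ N[V] → F ≤ N[Q] → H ≤ N[Q] → F ≤ N[R] → H ≤ N[R] → Q ≤ N[V] → R ≤ N[V] → R ≤ N[Q] →
    ⁅Q, R⁆ ≤ C[V] := by
  induction n using Nat.strong_induction_on with | _ n ih => ?_
  intro G _ _ K F H V Q R hn h hVK hQK hRK hV hQ hR hc hFV hHV hFQ hHQ hFR hHR hQV hRV hRQ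
  by_cases hC : Q ⊓ C[V] = ⊥
  · rw [h.core_min hVK hQK hRK hV hQ hR hst hc hFV hHV hFQ hHQ hFR hHR hQV hRV hRQ hC fun U hU hn' =>
      eq_bot_iff.2 (hC ▸ le_inf ((commg_subl (le_sup_left.trans hn')).trans hU.le)
        (ih _ (hn ▸ proper_card hU) rfl h hVK (hU.le.trans hQK) hRK hV (IsPGroup.sub hQ hU.le) hR
          (coprimegS hU.le hc) hFV hHV ((le_sup_left.trans le_sup_right).trans hn')
          ((le_sup_right.trans le_sup_right).trans hn') hFR hHR (hU.le.trans hQV) hRV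
          (le_sup_left.trans hn')))]
    exact bot_le
  have hQN := (subcent_normal hQV).norm
  have hRN := normsI hRQ (norms_cent hRV)
  refine cent_of_quotient (comm_subG hQV hRV) (comm_subG hQN hRN)
    (cents_norm (cents_symm inf_le_right)) (coprime_TI (coprimegS inf_le_left hc)) ?_
  rw [quotientR hQN hRN]
  exact ih _ (hn ▸ ltn_quotient hC inf_le_left) rfl (h.quo (inf_le_left.trans hQK)
    (normsI hFQ (norms_cent hFV)) (normsI hHQ (norms_cent hHV))) (quotientS _ hVK) (quotientS _ hQK)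
    (quotientS _ hRK) (quotient_abelian _ hV) (hQ.quo _) (hR.quo _) (coprime_morph _ hc)
    (quotient_norms _ hFV) (quotient_norms _ hHV) (quotient_norms _ hFQ) (quotient_norms _ hHQ)
    (quotient_norms _ hFR) (quotient_norms _ hHR) (quotient_norms _ hQV) (quotient_norms _ hRV)
    (quotient_norms _ hRQ)

theorem core [hs : Fact s.Prime] [ht : Fact t.Prime] [Fact r.Prime] (h : Fpf K F H) (hst : t ≠ s)
    (hrs : r ≠ s) (hQK : Q ≤ K) (hRK : R ≤ K) (hQ : IsPGroup s Q) (hR : IsPGroup t R)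
    (hFQ : F ≤ N[Q]) (hHQ : H ≤ N[Q]) (hFR : F ≤ N[R]) (hHR : H ≤ N[R]) (hRQ : R ≤ N[Q]) :
    ⁅Q, R⁆ ≤ C[Op r K] := by
  have hV := Op_pgroup r K
  have hKV := (pcore_normal {r} K).norm
  have hc : (#(Op r K)).Coprime #Q := pnat_coprime hV.pi (p'group_of_ne hQ hrs.symm)
  have nF := norms_pcore {r} h.nF
  have nH := norms_pcore {r} h.nH
  have nQ := norms_Phi (hQK.trans hKV)
  have nR := norms_Phi (hRK.trans hKV)
  have := core_aux hst _ rfl (h.quo ((Phi_sub _).trans (pcore_sub {r} K)) (norms_Phi nF) (norms_Phi nH))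
    (quotientS _ (pcore_sub {r} K)) (quotientS _ hQK) (quotientS _ hRK) (Phi_quotient_abelem hV).abelian
    (hQ.quo _) (hR.quo _) (coprime_morph _ hc) (quotient_norms _ nF) (quotient_norms _ nH)
    (quotient_norms _ hFQ) (quotient_norms _ hHQ) (quotient_norms _ hFR) (quotient_norms _ hHR)
    (quotient_norms _ (hQK.trans hKV)) (quotient_norms _ (hRK.trans hKV)) (quotient_norms _ hRQ)
  rw [← quotientR nQ nR, quotient_cents2 (comm_subG nQ nR) (Phi_normal _).norm, commGC] at this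
  exact coprime_cent_Phi ((comm_subG hQK hRK).trans hKV) (coprimegS (commg_subl hRQ) hc) this

theorem solA (h : Fpf K F H) : Group.IsSolvable (F ⊔ H : Subgroup G) :=
  solvableY (Or.inr h.norm) h.solF h.solH

theorem nil_quotient_Fitting (h : Fpf K F H) : Group.IsNilpotent (K /ᵍ fittingOf K) := by
  have hN := Fitting_normal K
  have nA := sup_le h.nF h.nH
  have nA' := norms_Fitting nA
  refine nilpotentS (BG4.le_Fitting_of_pgroups (quotient_sol _ h.sol) (normal_refl _)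
    fun s t hs ht hst T hT htT => ?_) (Fitting_nil _)
  have := Fact.mk hs
  have := Fact.mk ht
  set L := coquo (fittingOf K) (Op s (K /ᵍ fittingOf K)) with hL
  have hLK : L ⊴ K := cosetpre_normal hN (pcore_normal _ _)
  have nL : F ⊔ H ≤ N[L] := norms_cosetpre nA' (norms_pcore _ (quotient_norms _ nA))
  have hLq : L /ᵍ fittingOf K = Op s (K /ᵍ fittingOf K) := cosetpreK _
  obtain ⟨S, hS, nS⟩ := coprime_Sylow_exists s nL (coprimeSg hLK.le h.cA) (Or.inl h.solA)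
  have hSq : S /ᵍ fittingOf K = Op s (K /ᵍ fittingOf K) := by
    have := quotient_pHall (hLK.le.trans hN.norm) hS
    rw [hLq] at this
    exact (Hall_max this this.le le_rfl (pcore_pgroup _ _)).symm
  have hLS : L = fittingOf K ⊔ S := by rw [hL, ← hSq, quotientK (hS.le.trans (hLK.le.trans hN.norm))]
  obtain ⟨R, hR, nR⟩ := coprime_Sylow_exists t (normsI nA (norms_norm nS))
    (coprimeSg inf_le_left h.cA) (Or.inl h.solA)
  have hRK := hR.le.trans inf_le_left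
  have hRS := hR.le.trans inf_le_right
  have hSK := hS.le.trans hLK.le
  have hMq : (K ⊓ N[S]) /ᵍ fittingOf K = K /ᵍ fittingOf K := by
    have := Frattini_arg hLK hS
    rw [hLS, sup_assoc, sup_eq_right.2 (le_inf hSK (normG S))] at this
    rw [← quotientYidl (inf_le_left.trans hN.norm), this]
  have hRq := quotient_pHall (inf_le_left.trans hN.norm) hR
  rw [hMq] at hRq
  -- `[S, R] ≤ F(K)`
  have key : ⁅S, R⁆ ≤ fittingOf K := by
    have hC : L ⊓ C[piCoreOf {s}ᶜ (fittingOf K)] ⊴ K :=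
      ⟨inf_le_left.trans hLK.le, normsI hLK.norm (norms_cent (hN.pcore _).norm)⟩
    refine (le_inf ((commg_subl hRS).trans hS.le) (cents_symm ?_)).trans
      (BG4.le_Fitting_of_pgroups h.sol hC fun p q hp hq hne X hX hqX => ?_)
    · rw [← Fitting_pcore]
      refine Fitting_le_of_pcore fun r hr hd => ?_
      have := Fact.mk hr
      have hrs : r ≠ s := pcore_pgroup {s}ᶜ K r hr (hd.trans (cardSg (Fitting_sub _)))
      exact (pcoreS_normal _ (pcore_normal _ K)).trans (cents_symm (h.core hst hrs hSK hRK hS.pg hR.pg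
        (le_sup_left.trans nS) (le_sup_right.trans nS) (le_sup_left.trans nR) (le_sup_right.trans nR) hRS))
    · have := Fact.mk hp
      have := Fact.mk hq
      by_cases hps : p = s
      · subst hps
        have hXL := hX.trans inf_le_left
        have : X ≤ fittingOf K := (quotient_sub1 (hXL.trans (hLK.le.trans hN.norm))).1 (trivg_of_pi
          (pgroupS (hLq ▸ quotientS _ hXL) (pcore_pgroup _ _)) (quotient_pgroup _ (p'group_of_ne hqX hne)))
        exact sub_nilpotent_cent2 (Fitting_nil K) this (pcore_sub_Fitting p K)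
          (pnat_coprime' (p'group_of_ne hqX hne) (pcore_pgroup _ _))
      · exact (hX.trans inf_le_right).trans (centS (nilpotent_sub_pcore (Fitting_nil K)
          (pcore_sub_Fitting p K) (p'group_of_ne (Op_pgroup p K) hps)))
  rw [commGC, ← quotient_cents2 (hRK.trans hN.norm) (hSK.trans hN.norm), hSq] at key
  obtain ⟨g, hg, hTg⟩ := Sylow_subJ hRq hT htT
  have := cj_mono g key
  rw [← C_cj, (pcore_normal {s} _).cj_eq hg] at this
  exact hTg.trans this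

theorem sup_cj_eq (h : Fpf K F H) (hf : f ∈ F) (h1 : f ≠ 1) : H ⊔ BG.cj f H = F ⊔ H := by
  refine (p_index_maximal le_sup_right (h.frob.sd.relIndexr ▸ h.pF)).sup_eq
    (h.sup_cj hf ▸ le_sup_right) fun a => h1 (mem_bot.1 ?_)
  rw [← h.reg, ← coprime_norm_cent h.norm h.cop]
  exact ⟨hf, mem_norm_of_cj_le a⟩

theorem der_le_of_three (h : Fpf Q F H) (h3 : #F = 3) (hN : N ⊴ Q) (h1 : ⁅Q, H⁆ ≤ N)
    (h2 : Q ⊓ C[F] ≤ N) : ⁅Q, Q⁆ ≤ N := by
  obtain ⟨g, hg, ho⟩ := Cauchy (A := F) Nat.prime_three h3.symm.dvd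
  have hg1 : g ≠ 1 := fun e => by simp [e] at ho
  have g3 : g * (g * g) = 1 := by rw [← pow_orderOf_eq_one g, ho, pow_succ', pow_two]
  have hF : zpowers g = F := eq_of_card_le (zpowers_le.2 hg) (by rw [h3, Nat.card_zpowers, ho])
  have hQ : ∀ f ∈ F, BG.cj f Q = Q := fun f hf => cj_of_norm (h.nF hf)
  have hNf : ∀ f ∈ F, BG.cj f N ⊴ Q := fun f hf => hQ f hf ▸ hN.cj f
  have hT : ∀ f ∈ F, ⁅Q, BG.cj f H⁆ ≤ BG.cj f N := fun f hf => by
    rw [← hQ f hf, ← cj_comm]; exact cj_mono f h1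
  have hTQ : ∀ f ∈ F, ⁅Q, BG.cj f H⁆ ⊴ Q := fun f hf =>
    ⟨commg_subl (h.cj hf).nH, commg_norml _ _⟩
  have a : ∀ f ∈ F, f ≠ 1 → ⁅Q, BG.cj f H⁆ ⊔ N = Q := fun f hf hf1 => by
    have hle : ⁅Q, BG.cj f H⁆ ⊔ N ≤ Q := sup_le (hTQ f hf).le hN.le
    refine le_antisymm hle ?_
    have e := coprime_cent_prod' (sup_le h.nF h.nH) h.cA (Or.inr h.sol)
    rw [h.fpf, sup_bot_eq, ← h.sup_cj_eq hf hf1, commGC] at e
    have b : ⁅Q, H⁆ ≤ ⁅Q, BG.cj f H⁆ ⊔ N := h1.trans le_sup_right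
    exact e.ge.trans (comm_sup_le (norm_of_commg_subl ((commSg _ hle).trans b))
      (norm_of_commg_subl ((commSg _ hle).trans le_sup_left)) (commGC Q H ▸ b)
      (commGC Q _ ▸ le_sup_left))
  have hgg := F.mul_mem hg hg
  have b : BG.cj g N ⊓ BG.cj (g * g) N ≤ N := fun x hx => by
    set L := N ⊓ (BG.cj g N ⊓ BG.cj (g * g) N) with hL
    have hxQ := (hNf g hg).le hx.1
    have hgL : g ∈ N[L] := mem_norm.2 (by
      rw [hL, cj_inf, cj_inf, ← cj_mul, ← cj_mul, g3, cj_one, inf_comm N, inf_assoc])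
    have hFL : F ≤ N[L] := hF ▸ zpowers_le.2 hgL
    have u1 : g * x * g⁻¹ ∈ N := by
      have := conj_mem_cj g hx.2
      rwa [← cj_mul, g3, cj_one] at this
    have u2 : g * g * x * (g * g)⁻¹ ∈ N := by
      have := conj_mem_cj (g * g) hx.1
      rwa [← cj_mul, mul_assoc, g3, cj_one] at this
    have hu := N.mul_mem u1 u2
    set u := g * x * g⁻¹ * (g * g * x * (g * g)⁻¹) with hudef
    have hxu : ⁅x, u⁆ ∈ L := by
      have := commg_subI (((hNf g hg).inf (hNf _ hgg)).le.trans hN.norm)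
        (hN.le.trans ((hNf g hg).inf (hNf _ hgg)).norm) (commutator_mem_commutator hx hu)
      exact ⟨this.2, this.1⟩
    have hy := Q.mul_mem hxQ (hN.le hu)
    have hXL : Q ⊓ C[F] ≤ L := by
      have e : ∀ f ∈ F, Q ⊓ C[F] ≤ BG.cj f N := fun f hf => by
        rw [← cj_of_norm (normsI h.nF (norms_cent (normG F)) hf)]; exact cj_mono f h2
      exact le_inf h2 (le_inf (e g hg) (e _ hgg))
    have c : x * u ∈ L ⊔ F := mem_of_cj_le h.nF h.cF h.solF le_sup_right hy (by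
      have e : g * (x * u) * g⁻¹ = u * x :=
        calc _ = u * (g * (g * g) * x * (g * (g * g))⁻¹) := by rw [hudef]; group
          _ = _ := by rw [g3, one_mul, inv_one, mul_one]
      rw [← hF, cj_zpowers, zpowers_le, hF, show x * u * g * (x * u)⁻¹ = ⁅x, u⁆ * g by
        rw [commutatorElement_def, mul_assoc _ x⁻¹, ← mul_inv_rev, ← e]; group]
      exact mul_mem_sup hxu hg) (hXL.trans le_sup_left)
    have d : x * u ∈ Q ⊓ (L ⊔ F) := ⟨hy, c⟩
    rw [group_modl (Or.inr hFL) (inf_le_left.trans hN.le), coprime_TI h.cF, sup_bot_eq] at d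
    simpa using N.mul_mem d.1 (N.inv_mem hu)
  have gg1 : g * g ≠ 1 := fun e => hg1 (by rwa [e, mul_one] at g3)
  have c : ⁅Q, ⁅Q, BG.cj g H⁆⁆ ≤ N := by
    nth_rw 1 [← a _ hgg gg1]
    refine comm_sup_le ((hTQ _ hgg).le.trans hN.norm) (normG N) ?_ (commg_subl ((hTQ g hg).le.trans hN.norm))
    refine (commg_subI ((hTQ _ hgg).le.trans (hTQ g hg).norm) ((hTQ g hg).le.trans (hTQ _ hgg).norm)).trans
      (le_trans ?_ b)
    exact le_inf (inf_le_right.trans (hT g hg)) (inf_le_left.trans (hT _ hgg))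
  nth_rw 1 [← a _ hg hg1]
  exact comm_sup_le ((hTQ g hg).le.trans hN.norm) (normG N) (commGC Q _ ▸ c) (commg_subl hN.norm)

theorem core2_aux [hs : Fact s.Prime] (n : ℕ) :
    ∀ {G : Type u} [Group G] [Finite G] {K F H V Q : Subgroup G}, #Q = n → Fpf K F H → #F = 3 →
    #H = 2 → V ≤ K → Q ≤ K → IsMulCommutative V → IsPGroup s Q → (#V).Coprime #Q → F ≤ N[V] →
    H ≤ N[V] → F ≤ N[Q] → H ≤ N[Q] → Q ≤ N[V] → ⁅Q, Q⁆ ≤ C[V] := by
  induction n using Nat.strong_induction_on with | _ n ih => ?_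
  intro G _ _ K F H V Q hn h h3 h2 hVK hQK hV hQ hc hFV hHV hFQ hHQ hQV
  by_cases hC : Q ⊓ C[V] = ⊥
  swap
  · have hQN := (subcent_normal hQV).norm
    have nF := normsI hFQ (norms_cent hFV)
    have nH := normsI hHQ (norms_cent hHV)
    have hNK := inf_le_left.trans hQK (a := Q ⊓ C[V])
    refine cent_of_quotient (comm_subG hQV hQV) (comm_subG hQN hQN)
      (cents_norm (cents_symm inf_le_right)) (coprime_TI (coprimegS inf_le_left hc)) ?_
    rw [quotientR hQN hQN]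
    exact ih _ (hn ▸ ltn_quotient hC inf_le_left) rfl (h.quo hNK nF nH)
      ((card_quotient_TI nF (coprime_TI (coprimeSg hNK h.cF))).trans h3)
      ((card_quotient_TI nH (coprime_TI (coprimeSg hNK h.cH))).trans h2) (quotientS _ hVK)
      (quotientS _ hQK) (quotient_abelian _ hV) (hQ.quo _) (coprime_morph _ hc) (quotient_norms _ hFV)
      (quotient_norms _ hHV) (quotient_norms _ hFQ) (quotient_norms _ hHQ) (quotient_norms _ hQV)
  by_contra hcon
  have hQ' : ⁅Q, Q⁆ ≠ ⊥ := fun e => hcon (e ▸ bot_le)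
  have hQ0 : Q ≠ ⊥ := fun e => hQ' (by simp [e])
  have hdQ := commg_subl (normG Q)
  have hZ := Ohm1_abelem s (abelianS (inf_le_right : ⁅Q, Q⁆ ⊓ Z[Q] ≤ _) (center_abelian Q))
  set Z := omegaOne s (⁅Q, Q⁆ ⊓ Z[Q]) with hZdef
  have hZQ' : Z ≤ ⁅Q, Q⁆ ⊓ Z[Q] := Ohm_sub _ _
  have hZQ : Z ≤ Q := hZQ'.trans (inf_le_left.trans hdQ)
  have nZ : ∀ {B}, B ≤ N[Q] → B ≤ N[Z] := fun hB => norms_Ohm s (normsI (norms_der hB) (norms_center hB))
  have hZ0 : Z ≠ ⊥ := Ohm1_ne_bot (IsPGroup.sub hQ (inf_le_left.trans hdQ))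
    (meet_center_nil (pgroup_nil hQ) ((normal_refl Q).comm (normal_refl Q)) hQ')
  have hZV := hZQ.trans hQV
  have hV₁ : ⁅V, Z⁆ ≤ V := commg_subl hZV
  have n₁ : ∀ {B}, B ≤ N[V] → B ≤ N[Q] → B ≤ N[⁅V, Z⁆] := fun a b => normsR a (nZ b)
  have c₁ := coprimeSg hV₁ hc
  have h0 := coprime_abel_cent_TI hZV (coprimegS hZQ hc) hV
  have hV0 : ¬ ⁅V, Z⁆ ≤ ⊥ := fun a => hZ0 (eq_bot_iff.2 (hC ▸ le_inf hZQ (commG1'.1 (le_bot_iff.1 a))))
  have hZ₁ := commg_normr V Z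
  obtain ⟨D, hD, hp, hW⟩ := exists_hyperplane hZ hZ₁ (coprimegS hZQ c₁) h0 hV0
  rw [le_bot_iff] at hW
  have nQD : Q ≤ N[D] := cents_norm (cents_symm ((hD.trans hZQ').trans (inf_le_right.trans inf_le_right)))
  have nW : ∀ {B}, B ≤ N[V] → B ≤ N[Q] → B ≤ N[D] → B ≤ N[⁅V, Z⁆ ⊓ C[D]] :=
    fun a b c => normsI (n₁ a b) (norms_cent c)
  have hWK : ⁅V, Z⁆ ⊓ C[D] ≤ K := inf_le_left.trans (hV₁.trans hVK)
  have cW : (#(⁅V, Z⁆ ⊓ C[D])).Coprime #Q := coprimeSg inf_le_left c₁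
  have nQW := nW hQV (normG Q) nQD
  have hN := subcent_normal nQW
  have hX : Q ⊓ C[F] ≤ K ⊓ C[F] := inf_le_inf_right _ hQK
  refine hp.ne_one (relIndex_eq_one.2 ((le_inf le_rfl ((hZQ'.trans inf_le_left).trans
    (le_trans ?_ (inf_le_right (a := Q))))).trans (cent_eq_hyperplane hZ.abelian h0 hD hp le_rfl hW)))
  rcases h.dichotomy (hV₁.trans hVK) (hZQ.trans hQK) (abelianS hV₁ hV) hZ (n₁ hFV hFQ) (n₁ hHV hHQ)
    (nZ hFQ) (nZ hHQ) hZ₁ (coprimegS hZQ c₁) h0 hD hp hW with ⟨a, b⟩ | ⟨f, hf, a, b, c⟩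
  · have e := le_inf (commg_subl hFQ) (h.shult hQ hQK hFQ hWK nQW (nW hFV hFQ a) cW b)
    obtain ⟨w, hw, ho⟩ := Cauchy (A := H) Nat.prime_two h2.symm.dvd
    have hab := (Gen.fpf_invol (K := Q ⊓ C[F]) (normsI hHQ (norms_cent h.norm) hw)
      (by rw [← pow_two, ← ho, pow_orderOf_eq_one]; exact one_mem _)
      (semiregular_prime h.pH (h.fix hX) w hw fun e => by simp [e] at ho)).1
    refine der1_min hN.norm (abelianS ?_ (quotient_abelian _ hab))
    rw [quotientSK hN.norm (inf_le_left.trans hN.norm)]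
    exact (coprime_cent_prod' hFQ (coprimeSg hQK h.cF) (Or.inl h.solF)).ge.trans (sup_le_sup_right e _)
  · have h' := h.cj hf
    have n := norm_cj hFQ hHQ hf
    have h2' : #(BG.cj f H) = 2 := (card_cj f H).trans h2
    have hs2 : s ≠ 2 := fun e => absurd (Nat.eq_one_of_dvd_coprimes h.cH
      (e ▸ (pgroup_pdiv hQ hQ0).trans (cardSg hQK)) h2.symm.dvd) (by decide)
    exact (h'.sub hQK hFQ n).der_le_of_three h3 hN (le_inf (commg_subl n) (prime_pgroup_cent1 hQ h'.pH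
      (h2' ▸ hs2.symm) n (fun e => absurd e.1 hs2) (solvableS hWK h.sol) nQW
      (nW (norm_cj hFV hHV hf) n a) cW (coprimeSg hWK h'.cH) b)) (le_inf inf_le_left (c _ hX
      (inf_le_left.trans (n₁ hQV (normG Q))) (inf_le_left.trans nQD) (coprimeSg inf_le_left c₁.symm)))

theorem der_le_Fitting (h : Fpf K F H) (h3 : #F = 3) (h2 : #H = 2) : ⁅K, K⁆ ≤ fittingOf K := by
  have hN := Fitting_normal K
  have hK' := (normal_refl K).comm (normal_refl K)
  refine BG4.le_Fitting_of_pgroups h.sol hK' fun r s hr hs hsr X hX hsX => ?_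
  have := Fact.mk hr
  have := Fact.mk hs
  obtain ⟨Q, hQ, nQ⟩ := coprime_Sylow_exists s (sup_le h.nF h.nH) h.cA (Or.inl h.solA)
  have hV := Op_pgroup r K
  have hKV := (pcore_normal {r} K).norm
  have hc : (#(Op r K)).Coprime #Q := pnat_coprime hV.pi (p'group_of_ne hQ.pg hsr)
  have hQC : ⁅Q, Q⁆ ≤ C[Op r K] := by
    have nF := norms_pcore {r} h.nF
    have nH := norms_pcore {r} h.nH
    have nQ' := norms_Phi (hQ.le.trans hKV)
    have hNK := (Phi_sub _).trans (pcore_sub {r} K)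
    have := core2_aux _ rfl (h.quo hNK (norms_Phi nF) (norms_Phi nH))
      ((card_quotient_TI (norms_Phi nF) (coprime_TI (coprimeSg hNK h.cF))).trans h3)
      ((card_quotient_TI (norms_Phi nH) (coprime_TI (coprimeSg hNK h.cH))).trans h2)
      (quotientS _ (pcore_sub {r} K)) (quotientS _ hQ.le) (Phi_quotient_abelem hV).abelian
      (hQ.pg.quo _) (coprime_morph _ hc) (quotient_norms _ nF) (quotient_norms _ nH)
      (quotient_norms _ (le_sup_left.trans nQ)) (quotient_norms _ (le_sup_right.trans nQ))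
      (quotient_norms _ (hQ.le.trans hKV))
    rw [← quotientR nQ' nQ', quotient_cents2 (comm_subG nQ' nQ') (Phi_normal _).norm, commGC] at this
    exact coprime_cent_Phi ((comm_subG hQ.le hQ.le).trans hKV) (coprimegS (commg_subl (normG Q)) hc) this
  -- pass to `K / C_K(O_r(K))`
  have hC := subcent_normal hKV
  set C := K ⊓ C[Op r K] with hCdef
  have hnil := h.nil_quotient_Fitting
  set Y := coquo (fittingOf K) (piCoreOf {s}ᶜ (K /ᵍ fittingOf K)) with hY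
  have hYK : Y ⊴ K := cosetpre_normal hN (pcore_normal _ _)
  have hd := nilpotent_pcoreC {s} hnil
  rw [← nilpotent_Hall_pcore hnil (quotient_pHall hN.norm hQ)] at hd
  have hKY : K = Q ⊔ Y := by
    refine quotient_inj hN ⟨(sub_cosetpre _).trans le_sup_right, (sup_le hQ.le hYK.le).trans hN.norm⟩ ?_
    rw [quotientY (hQ.le.trans hN.norm) (hYK.le.trans hN.norm), cosetpreK, hd.sup]
  have hM : C ⊔ Y ⊴ K := hC.sup hYK
  have h4 : ⁅K, K⁆ ≤ C ⊔ Y := by
    refine der1_min hM.norm (abelianS ?_ (sub_der1_abelian (M := Q)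
      ((le_inf (comm_subG hQ.le hQ.le) hQC).trans le_sup_left)))
    rw [quotientSK hM.norm (hQ.le.trans hM.norm)]
    exact hKY.le.trans (sup_le le_sup_right (le_sup_right.trans le_sup_left))
  have hYC : PiGrp {s}ᶜ (Y /ᵍ C) := by
    have e := quotient_pHall (hYK.le.trans hC.norm) (pHall_trans_idx (Sylow_Fitting s K)
      (sub_cosetpre _) (by
        rw [← card_quotient (hYK.le.trans hN.norm), cosetpreK]; exact pcore_pgroup _ _))
    rw [quotientS1 (le_inf (pcore_sub _ _) (normal_pi_cent (pcore_normal _ _) (pcore_normal _ _)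
      (pcore_pgroup {s} K) (p'group_of_ne hV hsr.symm)))] at e
    exact p'group_of_Hall_bot e
  refine le_trans ((quotient_sub1 ((hX.trans hK'.le).trans hC.norm)).1 (trivg_of_pi
    (quotient_pgroup _ hsX.pi) (pgroupS ?_ hYC))) inf_le_right
  rw [← quotientYidl (hYK.le.trans hC.norm)]
  exact quotientS _ (hX.trans h4)

end Fpf

end Cfsg.Agent.Gen2
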