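import Cfsg.Agent.Gen2.FpfPQ2
import Cfsg.Agent.Transfer.Hol

/-! Fixed-point-free action of a non-abelian group of order `pq` in terms of `MulDistribMulAction`
(helper28): `exists_fpf`, `quotient_map_isog`. -/

set_option autoImplicit false

namespace Cfsg.Agent.Gen2

open Subgroup Cfsg.Agent.BG Cfsg.Agent.Transfer

theorem quotient_map_isog {G G' : Type*} [Group G] [Group G'] {f : G →* G'}
    (hf : Function.Injective f) (N : Subgroup G) [N.Normal] :
    Nonempty (G ⧸ N ≃* (⊤ : Subgroup G).map f /ᵍ N.map f) := by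
  have hn : (⊤ : Subgroup G).map f ≤ N[N.map f] :=
    (map_mono (norm_of_normal N ⊤)).trans (le_normalizer_map f)
  refine isog_of_surj (QuotientGroup.mk' N) ((mrest (qmk _) hn).comp
    ((f.subgroupMap ⊤).comp topEquiv.symm.toMonoidHom)) (QuotientGroup.mk'_surjective N) ?_ ?_
  · exact (mrest_surj _ _).comp ((f.subgroupMap_surjective ⊤).comp topEquiv.symm.surjective)
  · rw [← MonoidHom.comap_ker, mrest_ker, ker_coset, QuotientGroup.ker_mk']
    ext x
    exact (mem_map_iff_mem hf).symm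

theorem exists_fpf {G A : Type*} [Group G] [Finite G] [Group.IsSolvable G] [Group A] [Finite A]
    [MulDistribMulAction A G] {p q : ℕ} (hp : p.Prime) (hq : q.Prime) (hpq : p < q)
    (hA : Nat.card A = p * q) (hAna : ¬ IsMulCommutative A) (hcop : (Nat.card G).Coprime (p * q))
    (hfpf : ∀ g : G, (∀ a : A, a • g = g) → g = 1) :
    ∃ F H, Fpf (sdL (MulDistribMulAction.toMulAut A G) ⊤) F H ∧ #F = q ∧ #H = p := by
  obtain ⟨F, -, hF⟩ := Cauchy_sub (A := (⊤ : Subgroup A)) hq (by rw [card_top, hA]; simp)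
  obtain ⟨H, -, hH⟩ := Cauchy_sub (A := (⊤ : Subgroup A)) hp (by rw [card_top, hA]; simp)
  have hi : F.index = p := by
    have := F.index_mul_card
    rw [hF, hA] at this
    exact Nat.eq_of_mul_eq_mul_right hq.pos this
  have hn : F.Normal := normal_of_index_eq_minFac_card (by
    rw [hi, hA]
    refine le_antisymm ?_ (Nat.minFac_le_of_dvd hp.two_le (dvd_mul_right p q))
    have h1 := Nat.minFac_prime (n := p * q) fun h => hp.ne_one (Nat.eq_one_of_mul_eq_one_right h)
    rcases (Nat.Prime.dvd_mul h1).1 (Nat.minFac_dvd _) with h | h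
    · exact ((Nat.prime_dvd_prime_iff_eq h1 hp).1 h).ge
    · exact hpq.le.trans ((Nat.prime_dvd_prime_iff_eq h1 hq).1 h).ge)
  have htop : F ⊔ H = ⊤ := eq_of_card_le le_top (by
    rw [card_sup_TI (Or.inr (norm_of_normal _ _)) (coprime_TI (by
      rw [hF, hH]; exact (Nat.coprime_primes hq hp).2 hpq.ne')), card_top, hA, hF, hH, mul_comm])
  let φ := MulDistribMulAction.toMulAut A G
  have e1 : #(sdR φ F) = q := (card_sdR φ F).trans hF
  have e2 : #(sdR φ H) = p := (card_sdR φ H).trans hH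
  have e3 : #(sdL φ ⊤) = Nat.card G := (card_sdL φ ⊤).trans card_top
  refine ⟨sdR φ F, sdR φ H, ⟨e1 ▸ hq, e2 ▸ hp, (map_mono (norm_of_normal F H)).trans
    (le_normalizer_map _), fun h => hAna ?_, solvable_map _ inferInstance, sdR_le_normalizer_top φ F,
    sdR_le_normalizer_top φ H, ?_, ?_, eq_bot_iff.2 ?_⟩, e1, e2⟩
  · have h1 := abelianY (cyclic_abelian (prime_cyclic (hF ▸ hq)))
      (cyclic_abelian (prime_cyclic (hH ▸ hp))) (le_cent_iff.2 fun a ha b hb =>
        SemidirectProduct.inr_injective (φ := φ) (by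
          rw [map_mul, map_mul]
          exact (le_cent_iff.1 h _ ((inr_mem_sdR φ).2 hb) _ ((inr_mem_sdR φ).2 ha)).symm))
    rw [htop] at h1
    exact isog_abelian (isog_symm isog_top) h1
  · rw [e1, e3]; exact hcop.coprime_mul_left_right
  · rw [e2, e3]; exact hcop.coprime_mul_right_right
  · rintro _ ⟨⟨g, -, rfl⟩, hg⟩
    rw [← Subgroup.map_sup, htop] at hg
    rw [hfpf g fun a => (inl_mem_centralizer_sdR φ).1 hg a trivial, map_one]
    exact one_mem _

end Cfsg.Agent.Gen2
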