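import Cfsg.Agent.Classical.SL2Unip
import Cfsg.Prelude.Def_LocalEven

/-! Coordinates for a faithful natural `SL₂(F)`-module `V` of `L` adapted to a Sylow `p`-subgroup
`T` of `L` (`Co`, `exists_co`): `L = a(SL₂(F))`, `V = e(F²)`, `T = a(uSL F)`; fixed points and
commutators in these coordinates. -/

set_option autoImplicit false

namespace Cfsg.Agent.Gen2.NatSL2

open Matrix Subgroup Cfsg.Agent.Classical
open scoped MatrixGroups commutatorElement

variable {G : Type*} [Group G] {F : Type*} [Field F]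

/-- Coordinates. -/
structure Co (V L T : Subgroup G) (a : SL(2, F) →* G) (e : (Fin 2 → F) → G) : Prop where
  ia : Function.Injective a
  ie : Function.Injective e
  add : ∀ y z, e (y + z) = e y * e z
  mL : ∀ g, g ∈ L ↔ ∃ h, a h = g
  mV : ∀ v, v ∈ V ↔ ∃ y, e y = v
  mT : ∀ t, t ∈ T ↔ ∃ b, a (uSL b) = t
  act : ∀ h y, a h * e y * (a h)⁻¹ = e (h.1 *ᵥ y)

theorem mv (g h : SL(2, F)) (y : Fin 2 → F) : g.1 *ᵥ h.1 *ᵥ y = (g * h).1 *ᵥ y := by
  rw [mulVec_mulVec]; rfl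

theorem mv1 (y : Fin 2 → F) : (1 : SL(2, F)).1 *ᵥ y = y := one_mulVec y

theorem exists_co [Finite G] {p : ℕ} [Fact p.Prime] [Finite F] [CharP F p] {V L : Subgroup G}
    (hnat : IsNaturalSL2Module F V L) (hf : L ⊓ centralizer (V : Set G) = ⊥) (S : Sylow p L) :
    ∃ (a : SL(2, F) →* G) (e : (Fin 2 → F) → G), Co V L ((S : Subgroup L).map L.subtype) a e := by
  obtain ⟨-, ρ, ψ, hs, hk, hact⟩ := hnat
  have hi : Function.Injective ρ := by
    rw [← MonoidHom.ker_eq_bot_iff, hk, eq_bot_iff]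
    intro x hx
    have : (x : G) ∈ L ⊓ centralizer (V : Set G) := ⟨x.2, hx⟩
    rw [hf, mem_bot] at this
    exact Subtype.ext this
  let r : L ≃* SL(2, F) := MulEquiv.ofBijective ρ ⟨hi, hs⟩
  obtain ⟨x, hx⟩ := (unipAct_SL (F := F) p).exists_sylow_eq (not_char_dvd_card_P1 F p) (S.mapSurjective hs)
  obtain ⟨g, hg⟩ := sl_exists_smul_eq_inf x
  have hU := (unipAct_SL (F := F) p).smul_U g x
  rw [hg, ← hx] at hU
  refine ⟨L.subtype.comp (r.symm.toMonoidHom.comp (MulAut.conj g⁻¹).toMonoidHom),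
    fun y => ((ψ.symm (g⁻¹.1 *ᵥ y)).toMul : V), ?_, ?_, ?_, ?_, ?_, ?_, ?_⟩
  · exact (subtype_injective L).comp (r.symm.injective.comp (MulAut.conj g⁻¹).injective)
  · intro y z h
    have h1 : g⁻¹.1 *ᵥ y = g⁻¹.1 *ᵥ z := ψ.symm.injective (Additive.toMul.injective (Subtype.ext h))
    have h2 := congrArg (g.1 *ᵥ ·) h1
    simpa only [mv, mul_inv_cancel, mv1] using h2
  · intro y z
    simp only [mulVec_add, map_add, toMul_add, coe_mul]
  · intro l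
    refine ⟨fun hl => ⟨g * r ⟨l, hl⟩ * g⁻¹, ?_⟩, ?_⟩
    · simp [mul_assoc]
    · rintro ⟨h, rfl⟩; exact Subtype.mem _
  · intro v
    refine ⟨fun hv => ⟨g.1 *ᵥ ψ (Additive.ofMul ⟨v, hv⟩), ?_⟩, ?_⟩
    · simp only [mv, inv_mul_cancel, mv1, AddEquiv.symm_apply_apply, toMul_ofMul]
    · rintro ⟨h, rfl⟩; exact Subtype.mem _
  · intro t
    constructor
    · rintro ⟨s, hs', rfl⟩
      have : g * ρ s * g⁻¹ ∈ (unipAct_SL (F := F) p).U inf := hU ▸ ⟨ρ s, ⟨s, hs', rfl⟩, rfl⟩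
      obtain ⟨b, hb⟩ := (mem_unipSL_inf p).1 this
      refine ⟨b, ?_⟩
      rw [← hb]
      have : ρ s = r s := rfl
      simp [mul_assoc, this]
    · rintro ⟨b, rfl⟩
      have : uSL b ∈ (unipAct_SL (F := F) p).U inf := (mem_unipSL_inf p).2 ⟨b, rfl⟩
      rw [← hU] at this
      obtain ⟨_, ⟨s, hs', rfl⟩, hb⟩ := this
      refine ⟨s, hs', ?_⟩
      rw [← hb]
      have : ρ s = r s := rfl
      simp [mul_assoc, this]
  · intro h y
    obtain ⟨w, hw, hw'⟩ := hact (r.symm (g⁻¹ * h * g)) (ψ.symm (g⁻¹.1 *ᵥ y)).toMul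
    have e1 : ρ (r.symm (g⁻¹ * h * g)) = g⁻¹ * h * g := r.apply_symm_apply _
    rw [e1, ofMul_toMul, AddEquiv.apply_symm_apply, mv, mul_inv_cancel_right, ← mv] at hw'
    rw [← hw', AddEquiv.symm_apply_apply, toMul_ofMul, hw]
    simp

namespace Co

variable {V L T : Subgroup G} {a : SL(2, F) →* G} {e : (Fin 2 → F) → G} (h : Co V L T a e)
include h

theorem zero : e 0 = 1 := by
  have := h.add 0 0
  rw [add_zero] at this
  exact (left_eq_mul.1 this)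

theorem neg (y : Fin 2 → F) : e (-y) = (e y)⁻¹ :=
  eq_inv_of_mul_eq_one_left (by rw [← h.add, neg_add_cancel, h.zero])

theorem eV (y : Fin 2 → F) : e y ∈ V := (h.mV _).2 ⟨y, rfl⟩

theorem aL (g : SL(2, F)) : a g ∈ L := (h.mL _).2 ⟨g, rfl⟩

theorem uT (b : F) : a (uSL b) ∈ T := (h.mT _).2 ⟨b, rfl⟩

theorem fix {g : SL(2, F)} {y : Fin 2 → F} : a g * e y = e y * a g ↔ g.1 *ᵥ y = y := by
  rw [← mul_inv_eq_iff_eq_mul, h.act, h.ie.eq_iff]

theorem fixu {b : F} {y : Fin 2 → F} : a (uSL b) * e y = e y * a (uSL b) ↔ b * y 1 = 0 := by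
  rw [h.fix, uSL_val, funext_iff]
  simp [Fin.forall_fin_two, mulVec, dotProduct]

theorem mC {y : Fin 2 → F} : e y ∈ centralizer (T : Set G) ↔ y 1 = 0 := by
  rw [mem_centralizer_iff]
  refine ⟨fun H => by simpa using h.fixu.1 (H _ (h.uT 1)), fun H t ht => ?_⟩
  obtain ⟨b, rfl⟩ := (h.mT t).1 ht
  exact h.fixu.2 (by simp [H])

theorem mem_C {v : G} : v ∈ V ⊓ centralizer (T : Set G) ↔ ∃ c, e ![c, 0] = v := by
  constructor
  · rintro ⟨hv, hc⟩
    obtain ⟨y, rfl⟩ := (h.mV v).1 hv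
    refine ⟨y 0, congrArg e ?_⟩
    ext i; fin_cases i
    · rfl
    · exact (h.mC.1 hc).symm
  · rintro ⟨c, rfl⟩
    exact ⟨h.eV _, h.mC.2 rfl⟩

theorem comm (y : Fin 2 → F) (b : F) : e y * a (uSL b) * (e y)⁻¹ * (a (uSL b))⁻¹ = e ![-(b * y 1), 0] := by
  rw [show e y * a (uSL b) * (e y)⁻¹ * (a (uSL b))⁻¹ = e y * (a (uSL b) * (e y)⁻¹ * (a (uSL b))⁻¹) by group,
    ← h.neg, h.act, ← h.add]
  congr 1
  ext i; fin_cases i <;> simp [uSL_val, mulVec, dotProduct]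

end Co

end Cfsg.Agent.Gen2.NatSL2
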