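import Cfsg.Agent.BG.S3

/-! Trace arguments for coprime action (helper28): `exists_trace` (the trace map of `T` on an abelian
`V`), `trace_inj` (it is injective on `C_V(D)` if `T` moves the hyperplane `D` of `Z` freely),
`frob_pgroup_cent` (a Frobenius group `R H` acting on a `q`-group `Q`, all acting on `W` with
`C_W(H) = 1`, forces `[Q, R] ≤ C(W)`, including the Fermat case). -/

set_option autoImplicit false

namespace Cfsg.Agent.Gen2

open Subgroup Cfsg.Agent.BG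
open scoped commutatorElement IsMulCommutative

universe u
variable {G : Type*} [Group G] [Finite G] {B D H Q R T V W Z : Subgroup G} {q : ℕ}

theorem exists_trace (hV : IsMulCommutative V) (hT : T ≤ N[V]) :
    ∃ τ : V →* V, (∀ v, (τ v : G) ∈ C[T]) ∧
      (∀ x ∈ N[T], ∀ v w : V, x * v * x⁻¹ = w → x * τ v * x⁻¹ = τ w) ∧
      ∀ (U S : Subgroup G) (v : V), S ≤ T → (∀ t ∈ T, t ∉ S → t * v * t⁻¹ ∈ U) →
        (∀ t ∈ S, (v : G)⁻¹ * (t * v * t⁻¹) ∈ U) → ((v : G) ^ #S)⁻¹ * τ v ∈ U := by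
  classical
  have := Fintype.ofFinite T
  let ρ : T →* MulAut V := V.normalizerMonoidHom.comp (inclusion hT)
  have hρ : ∀ (t : T) (v : V), (ρ t v : G) = t * v * (t : G)⁻¹ := fun _ _ => rfl
  let τ : V →* V := ∏ t : T, (ρ t).toMonoidHom
  have hτ : ∀ v, τ v = ∏ t : T, ρ t v := fun v => MonoidHom.finsetProd_apply _ _ _
  have h2 : ∀ x ∈ N[T], ∀ v w : V, x * v * x⁻¹ = w → x * τ v * x⁻¹ = τ w := by
    intro x hx v w h
    have key : ∀ s : Finset T, x * (∏ t ∈ s, ρ t v : V) * x⁻¹ =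
        (∏ t ∈ s, ρ (T.normalizerMonoidHom ⟨x, hx⟩ t) w : V) := by
      intro s
      induction s using Finset.induction_on with
      | empty => simp
      | insert a s ha ih =>
        rw [Finset.prod_insert ha, Finset.prod_insert ha, coe_mul, coe_mul, ← ih, hρ, hρ, ← h]
        show _ = (x * a * x⁻¹) * _ * (x * a * x⁻¹)⁻¹ * _
        group
    rw [hτ, hτ, key]
    exact congrArg _ (Equiv.prod_comp (T.normalizerMonoidHom ⟨x, hx⟩).toEquiv fun t => ρ t w)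
  refine ⟨τ, fun v => BG.mem_cent.2 fun t ht => ?_, h2, fun U S v hS h1 h3 => ?_⟩
  · have h3 : ρ ⟨t, ht⟩ (τ v) = τ v := by
      rw [hτ, map_prod, ← Equiv.prod_comp (Equiv.mulLeft (⟨t, ht⟩ : T)) fun s => ρ s v]
      simp only [Equiv.coe_mulLeft, map_mul, MulAut.mul_apply]
    exact mul_inv_eq_iff_eq_mul.1 (congrArg Subtype.val h3)
  · have h4 : v ^ #S = ∏ t : T, if (t : G) ∈ S then v else 1 := by
      rw [Finset.prod_ite, Finset.prod_const_one, mul_one, Finset.prod_const, ← card_subgroupOf hS,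
        Nat.card_eq_fintype_card, Fintype.card_subtype]
      rfl
    have h5 : (v ^ #S)⁻¹ * τ v ∈ U.subgroupOf V := by
      rw [h4, hτ, ← Finset.prod_inv_distrib, ← Finset.prod_mul_distrib]
      refine prod_mem fun t _ => ?_
      split_ifs with h
      · exact h3 t h
      · simpa [mem_subgroupOf, hρ] using h1 t t.2 h
    exact h5

theorem trace_inj (hV : IsMulCommutative V) (hZ : IsMulCommutative Z) (hZV : Z ≤ N[V])
    (hc : (#V).Coprime #Z) (h0 : V ⊓ C[Z] = ⊥) (hD : D ≤ Z) (hp : (D.relIndex Z).Prime)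
    (hT : T ≤ N[V]) (hTZ : T ≤ N[Z]) (hf : T ⊓ N[D] = ⊥) :
    ∃ τ : V →* V, (∀ v, (τ v : G) ∈ C[T]) ∧
      (∀ x ∈ N[T], ∀ v w : V, x * v * x⁻¹ = w → x * τ v * x⁻¹ = τ w) ∧
      (∀ U : Subgroup G, T ≤ N[U] → ∀ v : V, (v : G) ∈ U → (τ v : G) ∈ U) ∧
      ∀ v : V, (v : G) ∈ C[D] → τ v = 1 → v = 1 := by
  obtain ⟨τ, h1, h2, h3⟩ := exists_trace hV hT
  refine ⟨τ, h1, h2, fun U hU v hv => ?_, fun v hv h => ?_⟩
  · have := h3 U ⊥ v bot_le (fun t ht _ => conj_mem_of_norm (hU ht) hv) (by simp)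
    rw [card_bot, pow_one] at this
    simpa using U.mul_mem hv this
  · have h4 := h3 ⁅V, D⁆ ⊥ v bot_le (fun t ht ht1 => S36.cent_le_comm (L := cj t D) hZ hZV hc h0
      (S36.hyp_sup hp (cj_le_of_norm (hTZ ht) hD) hD
        (by rw [← cj_of_norm (hTZ ht), relIndex_cj, cj_of_norm (hTZ ht)]) rfl
        fun e => ht1 (hf ▸ mem_inf.2 ⟨ht, mem_norm.2 e⟩))
      ⟨conj_mem_of_norm (hT ht) v.2, by rw [C_cj]; exact conj_mem_cj t hv⟩) (by simp)
    rw [h, card_bot, pow_one, coe_one, mul_one, inv_mem_iff] at h4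
    exact Subtype.ext (mem_bot.1 (coprime_abel_cent_TI (hD.trans hZV) (coprimegS hD hc) hV ▸
      mem_inf.2 ⟨h4, hv⟩))

theorem frob_pgroup_cent_aux [hq : Fact q.Prime] (n : ℕ) : ∀ {G : Type u} [Group G] [Finite G]
    {Q R H V : Subgroup G}, #Q = n → IsPGroup q Q → (#H).Prime → #H ≠ q → (#R).Coprime q →
    R ≤ N[Q] → H ≤ N[Q] → H ≤ N[R] → R ⊓ C[H] = ⊥ → Group.IsSolvable V → Q ≤ N[V] → R ≤ N[V] →
    H ≤ N[V] → (#V).Coprime #Q → (#V).Coprime #H → V ⊓ C[H] = ⊥ → ⁅Q, R⁆ ≤ C[V] := by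
  induction n using Nat.strong_induction_on with | _ n ih => ?_
  intro G _ _ Q R H V hn hQ hH hHq hRq hRQ hHQ hHR hR0 hV hQV hRV hHV hcQ hcH h0
  have hcq : (#H).Coprime q := (Nat.coprime_primes hH hq.out).2 hHq
  have hc : (#Q).Coprime #H := Solv.coprime_card_of_isPGroup hQ hcq
  have hcR : (#Q).Coprime #R := Solv.coprime_card_of_isPGroup hQ hRq
  have hreg := semiregular_prime hH hR0
  have hRH := regular_norm_coprime hHR hreg
  have hHs : Group.IsSolvable H := abelian_sol (cyclic_abelian (prime_cyclic hH))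
  have step : ∀ V N : Subgroup G, Group.IsSolvable V → Q ≤ N[V] → R ≤ N[V] → H ≤ N[V] →
      (#V).Coprime #Q → (#V).Coprime #H → V ⊓ C[H] = ⊥ → N ≠ ⊥ → N ≤ Q → N ≤ C[V] → Q ≤ N[N] →
      R ≤ N[N] → H ≤ N[N] → ⁅Q, R⁆ ≤ C[V] := by
    intro V N hV hQV hRV hHV hcQ hcH h0 hN hNQ hNV hQN hRN hHN
    have hVN := cents_norm (cents_symm hNV)
    have e : #(H /ᵍ N) = #H := card_quotient_TI hHN (coprime_TI (coprimeSg hNQ hc))
    have := ih _ (hn ▸ ltn_quotient hN hNQ) rfl (hQ.quo N) (e ▸ hH) (e ▸ hHq) (coprime_morphl _ hRq)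
      (quotient_norms N hRQ) (quotient_norms N hHQ) (quotient_norms N hHR)
      (by rw [← coprime_quotient_cent' hRN hHN hHR hRH (Or.inl hHs), hR0, quotient_bot])
      (quotient_sol N hV) (quotient_norms N hQV) (quotient_norms N hRV) (quotient_norms N hHV)
      (coprime_morph _ hcQ) (coprime_morph _ hcH)
      (by rw [← coprime_quotient_cent' hVN hHN hHV hcH (Or.inr hV), h0, quotient_bot])
    rw [← quotientR hQN hRN, quotient_cents2 (comm_subG hQN hRN) hVN] at this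
    refine commG1.1 (eq_bot_iff.2 ?_)
    rw [← coprime_TI (coprimegS hNQ hcQ)]
    exact le_inf (commg_subr (comm_subG hQV hRV)) this
  by_cases hC : Q ⊓ C[V] = ⊥
  swap
  · exact step V _ hV hQV hRV hHV hcQ hcH h0 hC inf_le_left inf_le_right (subcent_normal hQV).norm
      (normsI hRQ (norms_cent hRV)) (normsI hHQ (norms_cent hHV))
  by_contra hcon
  obtain ⟨h1, h2, h3, -, h4, -⟩ := Gen.minimal_action hQ (sup_le hRQ hHQ) le_sup_left
    (sup_le (normG R) hHR) hRq (fun h => hcon (h ▸ bot_le)) fun U hU hRU =>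
      eq_bot_iff.2 (hC ▸ le_inf ((commg_subl (le_sup_left.trans hRU)).trans hU.le)
      (ih _ (hn ▸ proper_card hU) rfl (IsPGroup.sub hQ hU.le) hH hHq hRq (le_sup_left.trans hRU)
        (le_sup_right.trans hRU) hHR hR0 hV (hU.le.trans hQV) hRV hHV (coprimegS hU.le hcQ) hcH h0))
  have hQ0 : Q ≠ ⊥ := fun h => hcon (by simp [h])
  have hR1 : R ≠ ⊥ := fun h => hcon (by simp [h])
  have hF := Frob.mk' hHR hR1 (ne_bot_of_prime hH) hreg
  have hQH : ⁅Q, H⁆ ≠ ⊥ := fun h => by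
    have h5 : R ≤ C[Q] := Frobenius_commg hF ▸ (commgS R (commG1'.1 h)).trans
      (commg_subr (norms_cent hRQ))
    exact hcon (by rw [commG1'.2 h5]; exact bot_le)
  have shult : ∀ U ≤ Q, H ≤ N[U] → ((q = 2 ∧ ∃ k, #H = 2 ^ k + 1) → IsMulCommutative U) →
      ⁅U, H⁆ = ⊥ := fun U hU hn hexc => eq_bot_iff.2 (hC ▸ le_inf ((commg_subl hn).trans hU)
    (prime_pgroup_cent1 (IsPGroup.sub hQ hU) hH hHq hn hexc hV (hU.trans hQV) hHV
      (coprimegS hU hcQ) hcH h0))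
  obtain ⟨⟨rfl, -⟩, hab⟩ := Classical.not_imp.1 fun h => hQH (shult Q le_rfl hHQ h)
  replace h4 := h4 hab
  have hHZ : Z[Q] ≤ C[H] := commG1.1 (shult _ (center_sub Q) (norms_center hHQ)
    fun _ => center_abelian Q)
  by_cases hcyc : IsCyclic ↥Z[Q]
  · have hE := extraspecial_of_cyclic_center hQ h4 (h3.symm.trans h4) hQ0 hcyc
    obtain ⟨k, -, hk⟩ := card_extraspecial hE
    have hZ2 := (extraspecial_spec hE).2.2.2
    have hEQ := commg_subl hHQ
    have hHE := commg_normr Q H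
    have hEp := IsPGroup.sub hQ hEQ
    have e1 : Z[⁅Q, H⁆] ≤ ⁅Q, H⁆ ⊓ C[H] := le_inf (center_sub _) (commG1.1 (shult _
      ((center_sub _).trans hEQ) (norms_center hHE) fun _ => center_abelian _))
    have e2 := Gen.cent_le_der_of_comm_eq hHE (coprimeSg hEQ hc) (coprime_commGid hHQ hc)
    have e3 : Phi ⁅Q, H⁆ ≤ Z[Q] := h4 ▸ PhiS hQ hEQ
    have e4 := der1_sub_Phi (pgroup_nil hEp)
    have e5 : Z[⁅Q, H⁆] = Z[Q] := prime_nt_eq (hZ2 ▸ Nat.prime_two) (((e1.trans e2).trans e4).trans e3)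
      (center_nil_ne_bot (pgroup_nil hEp) hQH)
    have e6 : ⁅Q, H⁆ ⊓ C[H] = Z[Q] := le_antisymm ((e2.trans e4).trans e3) (e5 ▸ e1)
    have hE' := extraspecial_of_cyclic_center hEp
      (le_antisymm (e5 ▸ e3) ((e1.trans e2).trans e4)) (le_antisymm (e5 ▸ e4.trans e3) (e1.trans e2))
      hQH (e5 ▸ hcyc)
    obtain ⟨m, hm0, hm⟩ := card_extraspecial hE'
    have hp := extraspecial_sdprod_cycle_cent_sol hE' hm (prime_cyclic hH) hcq hHE
      (fun x hx h => (semiprime_prime _ hH x hx h).trans (e6.trans e5.symm)) hV (hEQ.trans hQV) hHV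
      (coprimegS hEQ hcQ) hcH (fun h => center_nil_ne_bot (pgroup_nil hEp) hQH
        (eq_bot_iff.2 (hC ▸ le_inf ((center_sub _).trans hEQ) h))) h0
    have w := (Frobenius_Wielandt_fixpoint hF (sup_le hRQ hHQ)
      ((hcR.mul_right hc).coprime_dvd_right (card_sup_dvd (Or.inr hHR))) (pgroup_sol hQ)).1
    obtain ⟨j, hj⟩ := (IsPGroup.sub hQ (inf_le_left : Q ⊓ C[H] ≤ Q)).exists_card_eq
    have c := card_sup_mul_inf (A := ⁅Q, H⁆) (B := Q ⊓ C[H])
      (Or.inr (inf_le_left.trans (commg_norml Q H)))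
    rw [coprime_cent_prod hHQ hc (pgroup_sol hQ), ← inf_assoc, inf_eq_left.2 hEQ, e6, hk, hZ2, hm,
      hj, ← pow_succ, ← pow_add, Nat.pow_right_inj one_lt_two] at c
    rw [cent_sup, ← inf_assoc, h2, h4, inf_eq_left.2 hHZ, hZ2, hk, hj, ← pow_add, ← pow_mul,
      ← pow_succ, Nat.pow_right_inj one_lt_two, hp] at w
    obtain ⟨i, rfl⟩ : ∃ i, j = 2 * i + 1 := ⟨k - m, by omega⟩
    have h6 := Nat.lt_two_pow_self (n := m)
    rcases i with _ | i
    · omega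
    · nlinarith
  refine hcon (cents_symm (coprime_abelian_gen_cent1 (center_abelian Q) hcyc ((center_sub Q).trans hQV)
    (coprimegS (center_sub Q) hcQ) fun a ha h1 => cents_symm ?_))
  have hQa : Q ≤ C1[a] := le_cent1_iff.2 ha.2
  have hRa : R ≤ C1[a] := le_cent1_iff.2 (h2.trans h4 ▸ ha : a ∈ Q ⊓ C[R]).2
  have hHa : H ≤ C1[a] := le_cent1_iff.2 (hHZ ha)
  exact step _ (zpowers a) (solvableS inf_le_left hV) (normsI hQV (norms_cent1 hQa))
    (normsI hRV (norms_cent1 hRa)) (normsI hHV (norms_cent1 hHa)) (coprimeSg inf_le_left hcQ)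
    (coprimeSg inf_le_left hcH) (eq_bot_iff.2 (h0 ▸ inf_le_inf_right _ inf_le_left))
    (zpowers_ne_bot.2 h1) (zpowers_le.2 ha.1) (cents_symm (C_zpowers a ▸ inf_le_right))
    (hQa.trans (cent1_le_norm_zpowers a)) (hRa.trans (cent1_le_norm_zpowers a))
    (hHa.trans (cent1_le_norm_zpowers a))

theorem frob_pgroup_cent [Fact q.Prime] (hQ : IsPGroup q Q) (hH : (#H).Prime) (hHq : #H ≠ q)
    (hRq : (#R).Coprime q) (hRQ : R ≤ N[Q]) (hHQ : H ≤ N[Q]) (hHR : H ≤ N[R]) (hR0 : R ⊓ C[H] = ⊥)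
    (hV : Group.IsSolvable V) (hQV : Q ≤ N[V]) (hRV : R ≤ N[V]) (hHV : H ≤ N[V])
    (hcQ : (#V).Coprime #Q) (hcH : (#V).Coprime #H) (h0 : V ⊓ C[H] = ⊥) : ⁅Q, R⁆ ≤ C[V] :=
  frob_pgroup_cent_aux _ rfl hQ hH hHq hRq hRQ hHQ hHR hR0 hV hQV hRV hHV hcQ hcH h0

end Cfsg.Agent.Gen2
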